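import Cfsg.Agent.H25.UGDefs
import Cfsg.Agent.H24.Deg

/-! Project UG, piece SM2: a self-centralising subgroup of order 43 with automiser of order 7. -/

set_option autoImplicit false

namespace Cfsg.Agent.H82.UgSm2

open Cfsg Subgroup Cfsg.Agent.H25.UG Cfsg.Agent.H11 Cfsg.Agent.H12 Cfsg.Agent.H12.UC
open scoped Classical ComplexConjugate

universe u

theorem sm2 : Sm2Stmt.{u} := by
  intro G _ _ U hP hCP he hker χ hχ h1
  by_contra! hdeg
  have := Fintype.ofFinite (IrrCharacter G)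
  have hτ : ∀ c : U.C, U.τ c = 1 → c = 1 := fun c hc => by
    have h2 : Function.Injective fun x : U.P => U.τ ⟨x, U.hPC x.2⟩ :=
      Finite.injective_iff_surjective.2 U.τsurj
    have h3 : (c : G) ∈ U.P := hCP ▸ c.2
    have h4 := h2 (a₁ := ⟨c, h3⟩) (a₂ := 1) (hc.trans (map_one U.τ).symm)
    exact Subtype.ext (congrArg (fun x : U.P => (x : G)) h4)
  have hcomm : ∀ a b : U.C, a * b = b * a := fun a b =>
    Subtype.ext (U.cen _ a.2 _ (hCP ▸ b.2))
  have hk : ∀ {η η' : U.C → ℂ}, IsIrrCharacter U.C η → IsIrrCharacter U.C η' →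
      ∀ c, U.τ c = 1 → η c = η' c := fun h h' c hc => by
    rw [hτ c hc, irr_apply_one_of_comm hcomm h, irr_apply_one_of_comm hcomm h']
  have hO : ∀ {ψ : G → ℂ}, IsIrrCharacter G ψ → ∀ {η₀ : U.C → ℂ}, U.Good η₀ →
      mult (fun c : U.C => ψ c) η₀ ≠ 0 → ∀ η ∈ Finset.univ.image (U.cj η₀),
      IsIrrCharacter U.C η ∧ mult (fun c : U.C => ψ c) η ≠ 0 := fun hψ η₀ hη₀ h₀ η hη => by
    obtain ⟨n, -, rfl⟩ := Finset.mem_image.1 hη
    exact ⟨isIrr_cj hη₀.1 n, (mult_cj (isClassFunction_of_irr hψ) _ n).trans_ne h₀⟩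
  have h7 : ∀ ψ, IsIrrCharacter G ψ → ψ ≠ (fun _ => 1) → 7 ≤ charDegree ψ := fun ψ hψ hψ1 => by
    obtain ⟨η₀, hη₀, h₀⟩ := exists_good (H11.isCharacter_of_irr hψ) (hker ψ hψ hψ1)
    rw [← he, ← hη₀.card_orbit, Finset.card_eq_sum_ones]
    exact (Finset.sum_le_sum fun η hη => Nat.one_le_iff_ne_zero.2 (hO hψ hη₀ h₀ η hη).2).trans
      (sum_mult_le_deg (isCharacter_restrict (H11.isCharacter_of_irr hψ) U.C) _
        fun η hη => (hO hψ hη₀ h₀ η hη).1)
  have hχ7 : charDegree χ = 7 := le_antisymm hdeg (h7 χ hχ h1)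
  have hχ' := H11.isCharacter_of_irr hχ
  have hχC := isCharacter_restrict hχ' U.C
  obtain ⟨η₀, hη₀, h₀⟩ := exists_good hχ' (hker χ hχ h1)
  have he2 : 7 ≤ mult (fun c : U.C => χ c) (fun c : U.C => χ c) := by
    rw [← he, ← hη₀.card_orbit, Finset.card_eq_sum_ones]
    exact (Finset.sum_le_sum fun η hη => Nat.one_le_iff_ne_zero.2
      (mul_ne_zero (hO hχ hη₀ h₀ η hη).2 (hO hχ hη₀ h₀ η hη).2)).trans
      (sum_mult_sq_le hχC _ fun η hη => (hO hχ hη₀ h₀ η hη).1)
  have hz : ∀ η, U.Good η → ¬ U.Rel η η₀ → mult (fun c : U.C => χ c) η = 0 := fun η hη hr => by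
    have h2 : η ∉ Finset.univ.image (U.cj η₀) := fun h => by
      obtain ⟨n, -, e⟩ := Finset.mem_image.1 h
      exact hr ⟨n, e⟩
    have h3 := sum_mult_le_deg hχC (insert η (Finset.univ.image (U.cj η₀))) fun η' h => by
      rcases Finset.mem_insert.1 h with rfl | h
      exacts [hη.1, (hO hχ hη₀ h₀ η' h).1]
    have h4 : 7 ≤ ∑ η ∈ Finset.univ.image (U.cj η₀), mult (fun c : U.C => χ c) η := by
      rw [← he, ← hη₀.card_orbit, Finset.card_eq_sum_ones]
      exact Finset.sum_le_sum fun η hη => Nat.one_le_iff_ne_zero.2 (hO hχ hη₀ h₀ η hη).2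
    rw [Finset.sum_insert h2, H24.deg_res, hχ7] at h3
    omega
  -- the characters of degree different from seven are constant on the good characters
  have hconst : ∀ ψ, IsIrrCharacter G ψ → charDegree ψ ≠ 7 → ∀ η, U.Good η →
      mult (fun c : U.C => ψ c) η = mult (fun c : U.C => ψ c) η₀ := fun ψ hψ hd η hη => by
    by_cases hr : U.Rel η η₀
    · exact mult_eq_of_rel (isClassFunction_of_irr hψ) hr
    obtain ⟨-, ξ, hξ, -, e⟩ := exists_ind_sub_eq hχ hη₀ hη (hk hη₀.1 hη.1) h₀ (hz η hη hr)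
    have h2 : charDegree ξ = 7 := by
      have h3 := congrFun e 1
      rw [H14.indFun_one, Pi.sub_apply, hk hη₀.1 hη.1 1 (map_one _), sub_self, mul_zero,
        Pi.sub_apply, eq_comm, sub_eq_zero] at h3
      rw [← hχ7]; exact H24.deg_congr h3.symm
    have h3 := classInner_ind_sub (H11.isCharacter_of_irr hψ) (H11.isCharacter_of_irr hη₀.1)
      (H11.isCharacter_of_irr hη.1)
    rw [e, classInner_sub_left, classInner_irr_of_ne hχ hψ (fun h => hd (h ▸ hχ7)),
      classInner_irr_of_ne hξ hψ (fun h => hd (h ▸ h2)), sub_self, eq_comm, sub_eq_zero] at h3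
    exact_mod_cast h3.symm
  have hθ : IsCharacter G (χ * fun g => conj (χ g)) := isCharacter_mul hχ' (isCharacter_conj hχ')
  set θ := χ * fun g => conj (χ g) with hθdef
  have e1 : classInner θ (fun _ => 1) = 1 :=
    (classInner_eq_mul_conj_one χ χ).symm.trans (classInner_irr_self hχ)
  have hθ1 := isCharacter_sub_irr hθ isIrrCharacter_one (e1.trans_ne one_ne_zero)
  have e2 : classInner (θ - fun _ => 1) (fun _ => 1) = 0 := by
    rw [classInner_sub_left, e1, classInner_one_one, sub_self]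
  have hd : charDegree (θ - fun _ => 1) + 1 = charDegree χ ^ 2 := by
    have : ((charDegree (θ - fun _ => 1) + 1 : ℕ) : ℂ) = (charDegree χ ^ 2 : ℕ) := by
      push_cast
      rw [H24.deg_cast hθ1, H24.deg_cast hχ', hθdef]
      simp [conj_apply_one hχ', sq]
    exact_mod_cast this
  have hw : mult (fun c : U.C => (θ - fun _ => 1 : G → ℂ) c) (fun _ => 1) + 1 =
      mult (fun c : U.C => χ c) (fun c : U.C => χ c) := by
    have : ((mult (fun c : U.C => (θ - fun _ => 1 : G → ℂ) c) (fun _ => 1) + 1 : ℕ) : ℂ) =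
        mult (fun c : U.C => χ c) (fun c : U.C => χ c) := by
      rw [Nat.cast_add, mult_cast (isCharacter_restrict hθ1 U.C) isCharacter_one,
        mult_cast hχC hχC, classInner_eq_mul_conj_one (fun c : U.C => χ c),
        show (fun c : U.C => (θ - fun _ => 1 : G → ℂ) c) =
          ((fun c : U.C => χ c) * fun c : U.C => conj (χ c)) - fun _ => 1 from rfl,
        classInner_sub_left, classInner_one_one]
      simp
    exact_mod_cast this
  generalize (θ - fun _ => 1 : G → ℂ) = θ' at hθ1 e2 hd hw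
  have h48 : charDegree θ' = 48 := by rw [hχ7] at hd; omega
  obtain ⟨ψ, hψ, h2, h3⟩ : ∃ ψ, IsIrrCharacter G ψ ∧ classInner θ' ψ ≠ 0 ∧ charDegree ψ ≠ 7 := by
    by_contra! h
    have := H24.dvd_deg_of_forall_constituent hθ1 (d := 7) fun ψ h1 h2 => (h ψ h1 h2).symm ▸ dvd_rfl
    rw [h48] at this
    omega
  have hψ1 : ψ ≠ fun _ => 1 := fun e => h2 (e ▸ e2)
  have hψ' := H11.isCharacter_of_irr hψ
  obtain ⟨η₁, hη₁, h4⟩ := exists_good hψ' (hker ψ hψ hψ1)
  rw [hconst ψ hψ h3 η₁ hη₁] at h4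
  have h5 : 42 * mult (fun c : U.C => ψ c) η₀ ≤ charDegree ψ := by
    haveI : Finite (U.P →* ℂˣ) := Nat.finite_of_card_ne_zero (by rw [card_hom, hP]; norm_num)
    haveI := Fintype.ofFinite (U.P →* ℂˣ)
    have h6 := sum_mult_le_deg (isCharacter_restrict hψ' U.C)
      ((Finset.univ.erase 1).image U.lin) fun η h => by
        obtain ⟨μ, -, rfl⟩ := Finset.mem_image.1 h
        exact isIrr_lin μ
    rw [Finset.sum_congr rfl (g := fun _ => mult (fun c : U.C => ψ c) η₀) (fun η h => by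
        obtain ⟨μ, hμ, rfl⟩ := Finset.mem_image.1 h
        exact hconst ψ hψ h3 _ (good_lin (Finset.ne_of_mem_erase hμ))), Finset.sum_const,
      Finset.card_image_of_injective _ (fun μ ν h => eq_of_lin_eq fun x _ => congrFun h x),
      Finset.card_erase_of_mem (Finset.mem_univ _), Finset.card_univ,
      ← Nat.card_eq_fintype_card, card_hom, hP, smul_eq_mul, H24.deg_res] at h6
    exact h6
  have h6 : charDegree ψ ≤ 48 := h48 ▸ H24.deg_le_of_inner_ne_zero hθ1 hψ h2
  have h8 : θ' = ψ := by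
    have h9 := isCharacter_sub_irr hθ1 hψ h2
    by_contra h10
    obtain ⟨ξ, hξ, h11⟩ := exists_irr_constituent h9 (sub_ne_zero.2 h10)
    have h12 := h7 ξ hξ fun e => h11 (by
      rw [e, classInner_sub_left, e2, classInner_irr_of_ne hψ isIrrCharacter_one hψ1, sub_self])
    have h13 := H24.deg_le_of_inner_ne_zero h9 hξ h11
    have h14 : ((charDegree (θ' - ψ) + charDegree ψ : ℕ) : ℂ) = charDegree θ' := by
      push_cast
      rw [H24.deg_cast h9, H24.deg_cast hψ', H24.deg_cast hθ1, Pi.sub_apply, sub_add_cancel]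
    have h15 : charDegree (θ' - ψ) + charDegree ψ = charDegree θ' := by exact_mod_cast h14
    omega
  subst h8
  have hg := H14.IsGeneralizedCharacter.indFun U.C (isGen_sub isGen_one (isGen_of_irr hη₀.1))
  obtain ⟨m, hm, -⟩ := exists_eq_sum_int hg
  have h9 := classInner_self_eq_sum_int (isClassFunction_of_isGen hg) m hm
  rw [classInner_ind_ind (fun c hc => by
      rw [Pi.sub_apply, hk isIrrCharacter_one hη₀.1 c hc, sub_self]), s_sub_sub, s_one_one,
    s_one_left hη₀, s_one_right hη₀, s_of_rel hη₀ (Rel.refl _), he] at h9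
  have h10 : ∑ ψ, m ψ ^ 2 = 8 := by
    have : ((∑ ψ, m ψ ^ 2 : ℤ) : ℂ) = (8 : ℤ) := by rw [← h9]; norm_num
    exact_mod_cast this
  have h11 := Finset.single_le_sum (f := fun ψ => m ψ ^ 2) (fun _ _ => sq_nonneg _)
    (Finset.mem_univ ⟨θ', hψ⟩)
  have h12 := (hm ⟨θ', hψ⟩).symm.trans
    (classInner_ind_sub hψ' isCharacter_one (H11.isCharacter_of_irr hη₀.1))
  have h13 : m ⟨θ', hψ⟩ = (mult (fun c : U.C => θ' c) (fun _ => 1) : ℤ) -
      mult (fun c : U.C => θ' c) η₀ := by exact_mod_cast h12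
  have h14 : 5 ≤ m ⟨θ', hψ⟩ := by omega
  rw [h10] at h11
  nlinarith

end Cfsg.Agent.H82.UgSm2
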