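import Cfsg.Agent.H25.UGDefs
import Cfsg.Agent.H24.Deg

/-! Project UG, piece SMALL: no irreducible character of small degree is non-trivial on `P`. -/

set_option autoImplicit false

namespace Cfsg.Agent.H82.UgSmall

open Cfsg Module Subgroup Cfsg.Agent.H31 Cfsg.Agent.H77.Sg Cfsg.Agent.H25.UG Cfsg.Agent.H11

universe u

theorem small (uc : H25.UG.UcStmt.{u}) (e1 : H25.UG.E1Stmt.{u}) (sm2 : Sm2Stmt.{u}) :
    H25.UG.SmallStmt.{u} := by
  intro E K _ _ _ _ _ σ B q R t X c ψ hψ hP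
  have : Finite (K ≃ₗ[E] K) := Finite.of_injective _ DFunLike.coe_injective
  have hPX : Pt E K t ≤ X := fun _ ⟨s, hs, e⟩ =>
    e ▸ (c.mem s).2 ⟨1, one_mem _, s, hs, (one_mul _).symm⟩
  have hPS : Pt E K t ≤ SS X t := fun s hs => subset_closure ⟨1, X.one_mem, s, hs, by simp⟩
  have hSX : SS X t ≤ X := (closure_le _).2 (by
    rintro _ ⟨g, hg, s, hs, rfl⟩
    exact X.mul_mem (X.mul_mem hg (hPX hs)) (X.inv_mem hg))
  obtain ⟨hc, hU⟩ := uc E K σ B q R t X c
  obtain ⟨U, h1, h2, h3, he7, -⟩ := hU _ hPS hSX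
  obtain ⟨j, hj, h4, h5⟩ := e1 E K σ B q R t X c
  have := Fintype.ofFinite (SS X t)
  by_contra! hd
  have hr := isCharacter_restrict_of_le (isCharacter_of_irr hψ) hSX
  obtain ⟨x, hx, hx'⟩ := SetLike.not_le_iff_exists.1 hP
  have h6 : (⟨x, hPS hx⟩ : SS X t) ∉ charKer (fun y : SS X t => ψ ⟨y, hSX y.2⟩) := fun h =>
    hx' ((mem_charKer_irr_iff hψ).2 ((mem_charKer_iff hr).1 h))
  rw [mem_charKer_iff_forall_constituent hr] at h6
  push Not at h6
  obtain ⟨χ, hχ, h7, h8⟩ := h6
  have h9 : charDegree χ ≤ charDegree ψ := H24.deg_le_of_inner_ne_zero hr hχ h7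
  have hχ1 : χ ≠ fun _ => 1 := fun e => h8 (by rw [e]; exact fun _ => rfl)
  have hcard : Nat.card U.P = t := by
    rw [h1, Nat.card_congr (subgroupOfEquivOfLe hPS).toEquiv, c.cardPt]
  have hne : U.e ≠ 1 := fun he => by
    rw [H12.UC.e, relIndex_eq_one, h2] at he
    exact h5 (he ((h3 ⟨j, hj⟩).2 h4))
  have hk : ∀ θ, IsIrrCharacter (SS X t) θ → θ ≠ (fun _ => 1) → ¬ U.P ≤ charKer θ := by
    refine fun θ hθ hθ1 hle => hθ1 (irr_eq_one_of_charKer_eq_top hθ ?_)
    have := charKer_normal (isClassFunction_of_irr hθ)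
    have h10 : t.Coprime (charKer θ).index := hc.coprime_dvd_right
      ((index_dvd_of_le (h1 ▸ hle)).trans (Dvd.intro _ (relIndex_mul_relIndex _ _ _ hPS hSX)))
    refine eq_top_iff.2 fun ⟨y, hy⟩ _ => ?_
    induction hy using closure_induction with
    | mem y hy =>
      obtain ⟨g, -, _, ⟨s, hs, rfl⟩, rfl⟩ := hy
      refine (QuotientGroup.eq_one_iff _).1 ((pow_eq_one_iff_of_coprime h10).1 ⟨?_, ?_⟩)
      · rw [← QuotientGroup.mk_pow, QuotientGroup.eq_one_iff]
        convert (charKer θ).one_mem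
        refine Subtype.ext ?_
        rw [coe_pow, conj_pow, ← map_pow, show s ^ t = 1 from hs, map_one, mul_one,
          mul_inv_cancel, coe_one]
      · exact pow_card_eq_one'
    | one => exact one_mem _
    | mul a b _ _ ha hb => exact mul_mem (ha trivial) (hb trivial)
    | inv a _ ha => exact inv_mem (ha trivial)
  rcases c.q2.eq_or_lt with hq | hq
  · obtain ⟨rfl, ht⟩ := c.two hq.symm
    have hdet : SS X t ≤ (LinearEquiv.det : (K ≃ₗ[E] K) →* Eˣ).ker := (closure_le _).2 (by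
      rintro _ ⟨g, -, _, ⟨s, hs, rfl⟩, rfl⟩
      have h10 : LinearEquiv.det (mulH E K s) = 1 := (pow_eq_one_iff_of_coprime c.cop2).1
        ⟨by rw [← map_pow, ← map_pow, show s ^ t = 1 from hs, map_one, map_one], by
          classical
          rw [← c.st.card, ← Fintype.card_units]
          exact pow_card_eq_one⟩
      rw [SetLike.mem_coe, MonoidHom.mem_ker, map_mul, map_mul, h10, mul_one, ← map_mul,
        mul_inv_cancel, map_one])
    have hCP : U.C = U.P := by
      rw [h1, h2]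
      refine le_antisymm ?_ fun y ⟨s, _, e⟩ => ⟨s, e⟩
      rintro ⟨y, hy⟩ ⟨a, rfl : mulH E K a = y⟩
      obtain ⟨z, hz, s, hs, rfl⟩ := (c.mem a).1 (hSX hy)
      have h10 : mulH E K z ∈ SS X t := by
        rw [map_mul] at hy
        exact (mul_mem_cancel_right (hPS ⟨s, hs, rfl⟩)).1 hy
      obtain ⟨d, -, hd⟩ := c.zE z hz
      have h11 : (mulH E K z : K →ₗ[E] K) = d • LinearMap.id := by
        ext y
        simp [hd, Algebra.smul_def]
      have h12 : d ^ 7 = 1 := by
        have h13 := congrArg Units.val (MonoidHom.mem_ker.1 (hdet h10))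
        rwa [LinearEquiv.coe_det, h11, LinearMap.det_smul, LinearMap.det_id, mul_one, c.rk,
          Units.val_one] at h13
      have h13 : z = 1 := (pow_eq_one_iff_of_coprime (show Nat.Coprime 7 (q + 1) by
        rw [← hq]; norm_num)).1 ⟨Units.ext (by
          rw [Units.val_pow_eq_pow_val, hd, ← map_pow, h12, map_one, Units.val_one]), hz⟩
      exact ⟨s, hs, congrArg (mulH E K) (by rw [h13, one_mul])⟩
    have := sm2 _ U (hcard.trans ht) hCP
      (((Nat.dvd_prime (by norm_num)).1 he7).resolve_left hne) hk χ hχ hχ1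
    omega
  · exact hne (U.isIrr_res hk hχ hχ1 (by
      rw [hcard]
      exact (Nat.succ_le_succ (Nat.pow_le_pow_left (h9.trans hd) 2)).trans_lt (c.big hq))).2

end Cfsg.Agent.H82.UgSmall
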