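import Mathlib
import Cfsg.Agent.H45.OnDefs

/-! Piece O3 of project ON: involutions of the product of the components fix one point only. -/

set_option autoImplicit false

namespace Cfsg.Agent.H82.OnO3

open Cfsg.Agent.H45.On

universe u v

theorem o3 (hSim : SimStmt.{u}) (hInv : InvStmt.{u}) (hSwap : SwapStmt.{u, v}) : O3Stmt.{u, v} := by
  intro G Ω _ _ _ _ S pk od la
  have four : ∀ {x M}, S.C x M → Four M := fun h => (hSim _ (S.simple h) (S.nab h)).1
  have hA : ∀ x a, H45.On.Inv a → a ∈ S.N x → ∀ c, c * a = a * c → c • x = x := by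
    intro x a ha hx c hc
    refine (la x (c • x) a ha hx ?_).symm
    rw [← pk.cjN, mem_cj, mul_assoc, ← hc, inv_mul_cancel_left]
    exact hx
  have hB : ∀ x y a M, x ≠ y → H45.On.Inv a → a ∈ S.N x → S.C y M → cj a M ≠ M := by
    intro x y a M hxy ha hx hM e
    obtain ⟨s, hs, -, -, is, -⟩ := four hM
    obtain ⟨b, hb, ib, hab⟩ := hInv M a ha.1 e ⟨s, hs, is⟩
    exact hxy (od y x M b hM hb ib (hA x a ha hx b hab.symm))
  intro x y t it tx ty
  by_contra hxy
  obtain ⟨M, hM⟩ := S.one y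
  have hM' : S.C y (cj t M) := by have := S.conj t hM; rwa [ty] at this
  have hne : M ≠ cj t M := (hB x y t M hxy it tx hM).symm
  have hcm := S.comm hM hM' hne
  have hdj : ∀ a, a ∈ M → a ∈ cj t M → a = 1 := fun a h1 h2 => by
    have : a ∈ M ⊓ cj t M := ⟨h1, h2⟩
    rwa [pk.disj hM hM' hne] at this
  have ti : t⁻¹ = t := inv_eq_of_mul_eq_one_right it.1
  -- the diagonal involutions
  have hd : ∀ s ∈ M, H45.On.Inv s → H45.On.Inv (s * (t * s * t⁻¹)) ∧ s * (t * s * t⁻¹) ∈ S.N y ∧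
      (s * (t * s * t⁻¹)) • x = x := by
    intro s hs is
    have hc := hcm s hs _ (cj_mem (g := t) hs)
    have h2 : (t * s * t⁻¹) * (t * s * t⁻¹) = 1 := by
      rw [show (t * s * t⁻¹) * (t * s * t⁻¹) = t * (s * s) * t⁻¹ by group, is.1]; group
    refine ⟨⟨?_, fun h => is.2 (hdj s hs ?_)⟩,
      (S.N y).mul_mem (pk.le hM hs) (pk.le hM' (cj_mem hs)), hA x t it tx _ ?_⟩
    · calc s * (t * s * t⁻¹) * (s * (t * s * t⁻¹))
          = s * ((t * s * t⁻¹) * s) * (t * s * t⁻¹) := by simp only [mul_assoc]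
        _ = s * (s * (t * s * t⁻¹)) * (t * s * t⁻¹) := by rw [hc]
        _ = (s * s) * ((t * s * t⁻¹) * (t * s * t⁻¹)) := by simp only [mul_assoc]
        _ = 1 := by rw [is.1, h2, one_mul]
    · rw [eq_inv_of_mul_eq_one_left h]
      exact (cj t M).inv_mem (cj_mem hs)
    · calc s * (t * s * t⁻¹) * t = s * t * s := by group
        _ = (t * t) * s * t * s := by rw [it.1, one_mul]
        _ = t * ((t * s * t⁻¹) * s) := by rw [ti]; simp only [mul_assoc]
        _ = t * (s * (t * s * t⁻¹)) := by rw [hc]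
  obtain ⟨s, hs, s', hs', is, is', hss, hcs⟩ := four hM
  obtain ⟨jd, dN, dx⟩ := hd s hs is
  obtain ⟨jd', dN', dx'⟩ := hd s' hs' is'
  set d := s * (t * s * t⁻¹) with hdd
  set d' := s' * (t * s' * t⁻¹) with hdd'
  have hdne : d ≠ d' := by
    intro e
    have h1 : s'⁻¹ * s = (t * s' * t⁻¹) * (t * s * t⁻¹)⁻¹ := by
      rw [eq_mul_inv_iff_mul_eq, mul_assoc, ← hdd, e, hdd', inv_mul_cancel_left]
    have h2 := hdj _ (M.mul_mem (M.inv_mem hs') hs)
      (h1 ▸ (cj t M).mul_mem (cj_mem hs') ((cj t M).inv_mem (cj_mem hs)))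
    exact hss (inv_mul_eq_one.1 h2).symm
  have hdc : d * d' = d' * d := by
    have c1 : Commute s s' := hcs
    have c2 : Commute s (t * s' * t⁻¹) := hcm s hs _ (cj_mem hs')
    have c3 : Commute (t * s * t⁻¹) s' := (hcm s' hs' _ (cj_mem hs)).symm
    have c4 : Commute (t * s * t⁻¹) (t * s' * t⁻¹) := by
      change _ = _
      rw [show t * s * t⁻¹ * (t * s' * t⁻¹) = t * (s * s') * t⁻¹ by group, hcs]; group
    exact ((c1.mul_right c2).mul_left (c3.mul_right c4)).eq
  have idd : H45.On.Inv (d * d') := by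
    refine ⟨?_, fun h => hdne ?_⟩
    · calc d * d' * (d * d') = d * (d' * d) * d' := by simp only [mul_assoc]
        _ = d * (d * d') * d' := by rw [hdc]
        _ = (d * d) * (d' * d') := by simp only [mul_assoc]
        _ = 1 := by rw [jd.1, jd'.1, one_mul]
    · rw [eq_inv_of_mul_eq_one_left h, inv_eq_of_mul_eq_one_right jd'.1]
  obtain ⟨M₀, hM₀⟩ := S.one x
  have hyx : y ≠ x := fun h => hxy h.symm
  have hF : Fx M₀ y := by
    refine hSwap S x y M₀ d d' hM₀ jd.1 jd'.1 dx dx' (hA y d jd dN) (hA y d' jd' dN')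
      (hB y x d M₀ hyx jd dN hM₀) (hB y x d' M₀ hyx jd' dN' hM₀) fun e => ?_
    refine hB y x (d * d') M₀ hyx idd ((S.N y).mul_mem dN dN') hM₀ ?_
    rw [cj_mul, ← e, ← cj_mul, jd.1, cj_one]
  obtain ⟨b, hb, -, -, ib, -⟩ := four hM₀
  exact hyx (od x y M₀ b hM₀ hb ib (hF b hb))

end Cfsg.Agent.H82.OnO3
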