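import Mathlib
import Cfsg.Agent.H82.Niles
import Cfsg.Agent.H54.Qd
import Cfsg.Agent.H2.Gaschutz

/-! Recognition of `Qd(q)`. -/

set_option autoImplicit false

namespace Cfsg.Agent.H82

open scoped MatrixGroups commutatorElement
open Subgroup Matrix H83

variable {F : Type*} [Field F] {p n m : ℕ} {X : Type*} [Group X] {G M T V W C E A : Subgroup X}
  {π : G →* PSL(2, F)} {ρ : G →* SL(2, F)} {ψ : X → Fin 2 → F}

theorem exists_compl_of_exp [Finite X] (hp : p.Prime) (hW : W ≤ T) (hE : E ≤ T)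
    (hc : ⁅T, T⁆ ≤ W) (he : ∀ s ∈ T, s ^ p = 1) (hWE : W ⊓ E = ⊥) :
    ∃ A ≤ T, A ⊓ E = ⊥ ∧ E ⊔ A = T := by
  obtain ⟨A, -, ⟨h1, h2, h3⟩, hm⟩ := Finite.exists_le_maximal
    (p := fun A : Subgroup X => W ≤ A ∧ A ≤ T ∧ A ⊓ E = ⊥) (a := W) ⟨le_rfl, hW, hWE⟩
  refine ⟨A, h2, h3, le_antisymm (sup_le hE h2) fun s hs => ?_⟩
  by_contra h4
  have h5 : zpowers s ≤ normalizer (A : Set X) := le_normalizer_iff_commutator_le_left.2
    ((commutator_mono h2 (zpowers_le.2 hs)).trans (hc.trans h1))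
  refine h4 (le_sup_right (a := E) (hm ⟨h1.trans le_sup_left, sup_le h2 (zpowers_le.2 hs),
    eq_bot_iff.2 fun x hx => ?_⟩ le_sup_left (le_sup_right (a := A) (mem_zpowers s))))
  obtain ⟨a, ha, b, hb, rfl⟩ := (mem_sup_left_norm h5).1 hx.1
  obtain ⟨k, rfl⟩ := (mem_powers_iff_mem_zpowers.2 hb)
  by_cases hk : p ∣ k
  · obtain ⟨k, rfl⟩ := hk
    simp only [pow_mul, he s hs, one_pow, mul_one] at hx ⊢
    exact h3.le ⟨ha, hx.2⟩
  · refine absurd (mem_of_pelt_of_pow_mem (p := p) (k := 1) (n := k) (by rw [pow_one, he s hs]) ?_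
      ((Nat.Prime.coprime_iff_not_dvd hp).2 hk).symm) h4
    exact (Subgroup.mul_mem_cancel_left _ (le_sup_right (a := E) ha)).1 (le_sup_left (b := A) hx.2)

theorem NatMap.exists_hom_qd (h : NatMap ρ V C ψ) (hρ : Function.Surjective ρ) (hV : V ≤ G)
    (hk : ∀ g : G, ρ g = 1 ↔ (g : X) ∈ V) (h2 : (2 : F) ≠ 0) :
    ∃ φ : G →* qdOver F, Function.Surjective φ ∧ ∀ g, φ g = 1 ↔ (g : X) ∈ C := by
  obtain ⟨t, ht⟩ := hρ (-1)
  have h1 : ∀ g : G, ⁅(g : X), (t : X)⁆ ∈ V := fun g => (hk ⁅g, t⁆).1 (by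
    rw [map_commutatorElement, ht, commutatorElement_eq_one_iff_mul_comm]; simp)
  let c : G → Fin 2 → F := fun g => (2 : F)⁻¹ • ψ ⁅(g : X), (t : X)⁆
  have hc : ∀ g k : G, c (g * k) = ρ g • c k + c g := fun g k => by
    have : ⁅((g * k : G) : X), (t : X)⁆ = g * ⁅(k : X), (t : X)⁆ * (g : X)⁻¹ * ⁅(g : X), (t : X)⁆ := by
      simp only [coe_mul, commutatorElement_def]; group
    simp only [c]
    rw [this, h.map_mul _ (h.conj_mem g.2 (h1 k)) _ (h1 g), h.conj g _ (h1 k), smul_add]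
    simp only [Matrix.SpecialLinearGroup.smul_def, smul_eq_mulVec, Matrix.mulVec_smul]
  have hv : ∀ g : G, (g : X) ∈ V → c g = ψ g := fun g hg => by
    simp only [c]
    rw [h.map_commutator t hg, ht]
    ext i
    have : ((-1 : SL(2, F)) • ψ g) = -ψ g := by
      simp [Matrix.SpecialLinearGroup.smul_def]
    rw [this]
    simp only [Pi.smul_apply, Pi.sub_apply, Pi.neg_apply, smul_eq_mul]
    field_simp
    ring
  let φ : G →* qdOver F := MonoidHom.mk' (fun g => H54.Aff.mk (qdOver F) (ρ g 0 0) (ρ g 0 1)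
    (ρ g 1 0) (ρ g 1 1) (c g 0) (c g 1) (by rw [← Matrix.det_fin_two]; exact (ρ g).det_coe))
    fun g k => by
      apply H54.Aff.ext <;>
      simp [hc, Matrix.mul_apply, Fin.sum_univ_two, Matrix.SpecialLinearGroup.smul_def]
  have hl : ∀ g, H54.Aff.lin (φ g) = ρ g := fun g => by
    ext i j
    fin_cases i <;> fin_cases j <;> rfl
  have hφ : ∀ g : G, (g : X) ∈ V → φ g = H54.Aff.un (qdOver F) 0 (ψ g 0) (ψ g 1) := fun g hg => by
    have h3 := (hk g).2 hg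
    apply H54.Aff.ext <;> simp [φ, h3, hv g hg]
  refine ⟨φ, fun y => ?_, fun g => ⟨fun hg => ?_, fun hg => ?_⟩⟩
  · obtain ⟨g, hg⟩ := hρ (H54.Aff.lin y)
    have h3 : (φ g)⁻¹ * y ∈ H54.Aff.V (qdOver F) := by
      rw [← H54.Aff.ker_lin, MonoidHom.mem_ker, _root_.map_mul, _root_.map_inv, hl, hg, inv_mul_cancel]
    obtain ⟨v, h4, h5⟩ := h.surj ![H54.Aff.e ((φ g)⁻¹ * y), H54.Aff.f ((φ g)⁻¹ * y)]
    refine ⟨g * ⟨v, hV h4⟩, ?_⟩
    rw [_root_.map_mul, hφ ⟨v, hV h4⟩ h4, ← eq_inv_mul_iff_mul_eq, H54.Aff.eq_un_of_mem_V h3]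
    simp only [h5]
    rfl
  · have h3 : (g : X) ∈ V := (hk g).1 (by rw [← hl, hg, _root_.map_one])
    rw [hφ g h3, H54.Aff.un_eq_one_iff] at hg
    refine (h.ker _ h3).1 ?_
    ext i
    fin_cases i
    exacts [hg.2.1, hg.2.2]
  · rw [hφ g (h.le hg), (h.ker _ (h.le hg)).2 hg]
    exact H54.Aff.un_zero

theorem NatMap.exists_compl (h : NatMap ρ V (ctr G) ψ) (hρ : Function.Surjective ρ) (hV : V ≤ G)
    (hc : V ≤ centralizer (V : Set X)) (hk : ∀ g : G, ρ g = 1 → (g : X) ∈ V)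
    (h2 : ∀ v ∈ V, v ^ 2 = 1 → v = 1) :
    ∃ W ≤ V, G ≤ normalizer (W : Set X) ∧ ⁅V, G⁆ ≤ W ∧ W ⊓ ctr G = ⊥ := by
  obtain ⟨t, ht⟩ := hρ (-1)
  have h1 : ∀ g : G, ⁅(g : X)⁻¹, (t : X)⁆ ∈ V := fun g => hk ⁅g⁻¹, t⁆ (by
    rw [map_commutatorElement, ht, commutatorElement_eq_one_iff_mul_comm]; simp)
  let σ : X → X := fun v => t * v * (t : X)⁻¹ * v
  have h3 : ∀ v ∈ V, ∀ w ∈ V, σ (v * w) = σ v * σ w := fun v hv w hw => by
    have := hc hv _ (h.conj_mem t.2 hw)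
    simp only [σ]
    rw [mul_assoc (t * v * (t : X)⁻¹) v, ← mul_assoc v, ← this]
    group
  have h4 : ∀ v ∈ V, σ v ∈ ctr G := fun v hv => by
    refine (h.ker _ (mul_mem (h.conj_mem t.2 hv) hv)).1 ?_
    rw [h.map_mul _ (h.conj_mem t.2 hv) _ hv, h.conj t _ hv, ht]
    simp [Matrix.SpecialLinearGroup.smul_def]
  have h5 : ∀ v ∈ V, ∀ g ∈ G, σ (g * v * g⁻¹) = σ v := fun v hv g hg => by
    have h6 := hc (h1 ⟨g, hg⟩) _ (h.conj_mem t.2 hv)
    have h7 := (h4 v hv).2 g hg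
    simp only [commutatorElement_def, inv_inv] at h6
    calc σ (g * v * g⁻¹) = g * (g⁻¹ * t * g * (t : X)⁻¹ * (t * v * (t : X)⁻¹) *
          (g⁻¹ * t * g * (t : X)⁻¹)⁻¹ * v) * g⁻¹ := by simp only [σ]; group
      _ = σ v := by rw [← h6, mul_inv_cancel_right, h7, mul_inv_cancel_right]
  have h6 : ∀ v ∈ V, σ v⁻¹ = (σ v)⁻¹ := fun v hv => by
    rw [eq_inv_iff_mul_eq_one, ← h3 _ (inv_mem hv) _ hv]
    simp [σ]
  let W : Subgroup X :=
    { carrier := {v | v ∈ V ∧ σ v = 1}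
      one_mem' := ⟨one_mem _, by simp [σ]⟩
      mul_mem' := fun ha hb => ⟨mul_mem ha.1 hb.1, by rw [h3 _ ha.1 _ hb.1, ha.2, hb.2, mul_one]⟩
      inv_mem' := fun ha => ⟨inv_mem ha.1, by rw [h6 _ ha.1, ha.2, inv_one]⟩ }
  refine ⟨W, fun v hv => hv.1, le_normalizer_of_conj_mem fun g hg v hv =>
    ⟨h.conj_mem hg hv.1, (h5 v hv.1 g hg).trans hv.2⟩, commutator_le.2 fun v hv g hg =>
    ⟨h.commutator_mem hg hv, ?_⟩, eq_bot_iff.2 fun v hv => h2 v hv.1.1 ?_⟩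
  · rw [commutatorElement_def, mul_assoc, mul_assoc, ← mul_assoc g, h3 _ hv _
      (h.conj_mem hg (inv_mem hv)), h5 _ (inv_mem hv) _ hg, h6 _ hv, mul_inv_cancel]
  · have h7 : σ v = 1 := hv.1.2
    simp only [σ] at h7
    rwa [hv.2.2 t t.2, mul_inv_cancel_right, ← pow_two] at h7

variable [Finite X] [hp : Fact p.Prime]

theorem isInternal_of_compl (hT : IsSylowIn p T G) (hE : ctr G ≤ T) (hA : A ≤ T)
    (h1 : A ⊓ ctr G = ⊥) (h2 : ctr G ⊔ A = T) {Y : Type*} [Group Y] {φ : G →* Y}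
    (hφ : Function.Surjective φ) (hk : ∀ g, φ g = 1 ↔ (g : X) ∈ ctr G) :
    ∃ G₀ : Subgroup X, IsInternalDirectProduct G₀ (ctr G) G ∧ Nonempty (G₀ ≃* Y) := by
  have hn := normal_subgroupOf_of_le_normalizer (norm_ctr (le_normalizer (H := G)))
  have : IsMulCommutative ((ctr G).subgroupOf G) :=
    ⟨⟨fun a b => Subtype.ext (Subtype.ext (b.2.2 _ a.1.2))⟩⟩
  obtain ⟨k, hk'⟩ := IsPGroup.iff_card.1 ((hT.isPGroup.to_le hE).comap_subtype (K := G))
  obtain ⟨K, hK⟩ := H2.gaschutz_exists ((ctr G).subgroupOf G) (T.subgroupOf G) (comap_mono hE)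
    (by rw [show Nat.card ((ctr G).subgroupOf G) = p ^ k from hk']
        exact (hT.coprime_relIndex.pow_right k).symm)
    (A.subgroupOf G) (comap_mono hA) ((comap_inf _ _ _).symm.trans (by rw [h1]; exact bot_subgroupOf G))
    (by rw [← subgroupOf_sup inf_le_left (hA.trans hT.le), h2])
  have h3 : (ctr G) = ((ctr G).subgroupOf G).map G.subtype := (subgroupOf_map_of_le inf_le_left).symm
  refine ⟨K.map G.subtype, ⟨map_subtype_le _, inf_le_left, fun a ha b hb =>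
    hb.2 a (map_subtype_le _ ha), ?_, ?_⟩, ⟨(K.equivMapOfInjective _ G.subtype_injective).symm.trans
      (MulEquiv.ofBijective (φ.comp K.subtype) ⟨(injective_iff_map_eq_one _).2 fun a ha => ?_,
        fun y => ?_⟩)⟩⟩
  · rw [h3, ← Subgroup.map_inf _ _ _ G.subtype_injective, hK.symm.disjoint.eq_bot, Subgroup.map_bot]
  · rw [h3, ← Subgroup.map_sup, hK.symm.sup_eq_top, map_top_subtype]
  · exact Subtype.ext (hK.disjoint.eq_bot.le ⟨(hk _).1 ha, a.2⟩)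
  · obtain ⟨g, rfl⟩ := hφ y
    obtain ⟨⟨a, b⟩, rfl⟩ := hK.2 g
    exact ⟨b, by simp [(hk a).2 a.2]⟩

theorem BlkI.map {X' : Type*} [Group X'] [Finite X'] {f : X →* X'} (hf : Function.Injective f)
    (h : BlkI p G) : BlkI p (G.map f) := by
  rwa [BlkI, ← map_pCoreOf_of_injective hf, ← map_resOf, ← map_ZQ hf, ← Subgroup.map_commutator,
    map_le_map_iff_of_injective hf]

theorem Vx.comm_Q_le (h : Vx p m G T) (h' : Vx p m M T) (hn : ¬ ZQ p G ≤ pCoreOf p M) :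
    ⁅pCoreOf p M, pCoreOf p M⁆ ≤ ⁅pCoreOf p G, pCoreOf p G⁆ := by
  have h1 : pCoreOf p M ≤ ZQ p M ⊔ pCoreOf p G ⊓ pCoreOf p M := by
    rw [← dedekind (h'.V_le.trans h.normQ) (ZQ_le M)]
    exact le_inf (h'.Q_le.trans (h.crit_sup h' h'.V_le h.V_le hn)) le_rfl
  have h2 := (sup_le h'.V_le (inf_le_left.trans h.Q_le : pCoreOf p G ⊓ pCoreOf p M ≤ T)).trans
    (le_norm_comm h.normQ h.normQ)
  refine (commutator_mono h1 le_rfl).trans (comm_sup_left_le (comm_le_of_cent (Q_le_cent_ZQ M))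
    ((commutator_mono le_rfl h1).trans (comm_sup_right_le (comm_le_of_cent ((ZQ_le_cent M).trans
      (cent_anti inf_le_right))) (commutator_mono inf_le_left inf_le_left) h2)) h2)

variable [Fintype F]

theorem BL.not_V_le {U : Subgroup X} (hF : Fintype.card F = p ^ n) (hp2 : p ≠ 2)
    (hB : BL p π T ρ ψ U C) (h : Vx p m G T) (h' : Vx p m M T) (hne : pCoreOf p G ≠ pCoreOf p M)
    (hM : ∀ R ≤ ctr M, R ≠ ⊥ → normalizer (R : Set X) ≤ M) : ¬ ZQ p G ≤ pCoreOf p M := fun h1 => by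
  have h2 := h.typeA h' h1 hne
  have h3 := h.not_comm_le le_rfl h.not_le_Q
  obtain ⟨t, ht⟩ := hB.rsurj (-1)
  have h4 : (t : X) ∈ normalizer (T : Set X) := hB.stds.mem_normalizer
    (fun g hg => h.Q_le (hB.mem_Q hg)) (by rw [ht]; simp [mem_BB])
  have h5 : (t : X) ∈ M := hM _ h2 (fun h5 => h3 (h5.le.trans bot_le))
    (le_norm_comm (zpowers_le.2 (norm_ZQ G t.2)) (zpowers_le.2 h4) (mem_zpowers _))
  refine h3 fun r hr => ?_
  have h6 : r ∈ VV T G := hB.ctr_le_VV (h.comm_le hr)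
  refine (hB.nat.ker r h6).1 (eq_zero_of_sub_neg (two_ne_zero_of_card hF hp2) ?_)
  rw [← ht, ← hB.nat.map_commutator t h6, comm_one_of_mem_cent' (h2 hr).2 h5, hB.nat.map_one]

theorem BL.qd_split {U : Subgroup X} (hF : Fintype.card F = p ^ n) (hp2 : p ≠ 2)
    (hB : BL p π T ρ ψ U C) (h : Vx p m G T) (hQ : ⁅pCoreOf p G, pCoreOf p G⁆ = ⊥)
    (he : ∀ s ∈ T, s ^ p = 1) :
    ∃ G₀ : Subgroup X, IsInternalDirectProduct G₀ (ctr G) G ∧ Nonempty (G₀ ≃* qdOver F) := by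
  have hV : VV T G = pCoreOf p G := le_antisymm hB.VV_le_Q ((le_inf le_rfl
    (comm_eq_bot_iff.1 hQ)).trans (hB.toPN.cd_Q h.clt).2.2.ge)
  have hk : ∀ g : G, ρ g = 1 ↔ (g : X) ∈ VV T G := fun g =>
    ⟨fun hg => hV.ge (hB.mem_Q hg), fun hg => hB.toPN.rho_eq_one (hV.le hg)⟩
  have hVG := hB.VV_le_T.trans h.le
  obtain ⟨φ, h1, h2⟩ := hB.nat.exists_hom_qd hB.rsurj hVG hk (two_ne_zero_of_card hF hp2)
  obtain ⟨W, h3, h4, h5, h6⟩ := hB.nat.exists_compl hB.rsurj hVG hB.VV_comm (fun g => (hk g).1)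
    fun v hv h3 => by
      have h4 := orderOf_dvd_of_pow_eq_one h3
      have h5 := orderOf_dvd_of_pow_eq_one (he v (hB.VV_le_T hv))
      exact orderOf_eq_one_iff.1 (Nat.eq_one_of_dvd_coprimes
        ((Nat.coprime_primes Nat.prime_two hp.out).2 hp2.symm) h4 h5)
  obtain ⟨A, hA, hAQ⟩ := h.clt.exists_lag h.not_le_Q
  have h7 := h.le_sup_of_cd (hA.cd h.bd) hAQ
  have h8 := (sup_le hA.le h.Q_le).trans (h.le.trans h4)
  have hE := h.ctr_G_le.trans inf_le_left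
  rw [← hV] at h7 h8
  obtain ⟨B, h9, h10, h11⟩ := exists_compl_of_exp hp.out (h3.trans hB.VV_le_T) hE
    ((commutator_mono h7 le_rfl).trans (comm_sup_left_le ((commutator_mono le_rfl h7).trans
      (comm_sup_right_le (comm_le_of_cent hA.comm) (comm_le_swap ((commutator_mono le_rfl
        (hA.le.trans h.le)).trans h5)) h8)) ((commutator_mono le_rfl h.le).trans h5) h8)) he h6
  exact isInternal_of_compl h.syl hE h9 h10 h11 h1 h2

end Cfsg.Agent.H82
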