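import Cfsg.Agent.H18.RfSc
import Cfsg.Agent.H89.PBasic

/-! Project RF: `Q` is the largest normal 2-subgroup of the centralizer. -/

set_option autoImplicit false

namespace Cfsg.Agent.H82.RfO2

open Cfsg Subgroup Cfsg.Agent.H18.MaxOff Cfsg.Agent.H18.Rf
open Cfsg.Agent.H49 (XS LX)

universe u

variable {G : Type u} [Group G] [Finite G]

omit [Finite G] in
theorem conj_zp {z c y : G} (hc : c ∈ C1 z) (hy : y ∈ zpowers z) : c * y * c⁻¹ = y := by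
  obtain ⟨n, rfl⟩ := hy
  have h : Commute c z := mem_centralizer_singleton_iff.1 hc
  rw [mul_inv_eq_iff_eq_mul]
  exact (h.zpow_right n).eq

theorem cen_le (z : G) : C1 z ≤ NN (zpowers z) := fun _ hc =>
  mem_norm_of_le fun _ hy => (conj_zp hc hy).symm ▸ hy

theorem exists_fix {Q R : Subgroup G} {z : G} (h : LX Q z) (hR : IsPGroup 2 R) (hRC : R ≤ C1 z) :
    ∃ q ∈ Q, q ∉ zpowers z ∧ ∀ x ∈ R, q * x * q⁻¹ * x⁻¹ ∈ zpowers z := by
  have hQC : Q ≤ C1 z := fun x hx => mem_centralizer_singleton_iff.2 (h.cen x hx)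
  have hP := pg_sup h.toXS.isPGroup hR (hRC.trans h.nz)
  have hPC : R ⊔ Q ≤ C1 z := sup_le hRC hQC
  haveI : ((zpowers z).subgroupOf (R ⊔ Q)).Normal := ⟨fun y hy c => by
    change c.1 * y.1 * c.1⁻¹ ∈ zpowers z
    rw [conj_zp (y := y.1) (hPC c.2) hy]
    exact hy⟩
  haveI : (Q.subgroupOf (R ⊔ Q)).Normal := ⟨fun y hy c =>
    (mem_normalizer_iff.1 (h.nz (hPC c.2)) y.1).1 hy⟩
  let f := QuotientGroup.mk' ((zpowers z).subgroupOf (R ⊔ Q))
  have hf : ∀ x, f x = 1 ↔ x.1 ∈ zpowers z := fun x => QuotientGroup.eq_one_iff x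
  haveI : ((Q.subgroupOf (R ⊔ Q)).map f).Normal :=
    Normal.map inferInstance f (QuotientGroup.mk'_surjective _)
  obtain ⟨_, ⟨q, hq, rfl⟩, h1, h2⟩ := H89.exists_mem_center_of_normal (p := 2)
    (hP.to_quotient _) (N := (Q.subgroupOf (R ⊔ Q)).map f) (fun e => by
      obtain ⟨x, hx, y, hy, hxy⟩ := h.nonab
      have h3 : f ⟨x, mem_sup_right hx⟩ ∈ (Q.subgroupOf (R ⊔ Q)).map f := mem_map_of_mem f hx
      rw [e, mem_bot] at h3
      have h4 : x ∈ zpowers z := (hf _).1 h3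
      exact hxy (mul_inv_eq_iff_eq_mul.1 (conj_zp (hQC hy) h4)).symm)
  refine ⟨q.1, hq, fun h3 => h2 ((hf _).2 h3), fun x hx => ?_⟩
  have h3 : f (q * ⟨x, mem_sup_left hx⟩ * q⁻¹ * (⟨x, mem_sup_left hx⟩ : ↥(R ⊔ Q))⁻¹) = 1 := by
    rw [map_mul, map_mul, map_mul, ← mem_center_iff.1 h1, map_inv, map_inv, mul_inv_cancel_right,
      mul_inv_cancel]
  exact (hf _).1 h3

theorem o2 (gw : GwStmt.{u}) : O2Stmt.{u} := by
  intro G _ _ V z Q W el wc lc lx oz nc R hR hRC hCR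
  have hVC : V ≤ C1 z := fun v hv => mem_centralizer_singleton_iff.2 (comm_of_sq el hv lc.zV)
  have hQC : Q ≤ C1 z := fun x hx => mem_centralizer_singleton_iff.2 (lx.cen x hx)
  have hRN : R ≤ NN V := le_sup_right.trans
    (wc.le_norm (pg_sup hR (pg_of_sq el) (hVC.trans hCR)) le_sup_left)
  have hB : C1 z ≤ NN (Q ⊓ CM R (zpowers z)) := fun c hc => mem_norm_of_le fun b hb => by
    have h1 := (mem_normalizer_iff.1 (lx.nz hc) b).1 hb.1
    refine ⟨h1, cen_le z (hQC h1), fun x hx => ?_⟩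
    have h2 := hb.2.2 _ ((mem_normalizer_iff''.1 (hCR hc) x).1 hx)
    rw [show c * b * c⁻¹ * x * (c * b * c⁻¹)⁻¹ * x⁻¹ =
      c * (b * (c⁻¹ * x * c) * b⁻¹ * (c⁻¹ * x * c)⁻¹) * c⁻¹ by group, conj_zp hc h2]
    exact h2
  have hz : z ∈ Q ⊓ CM R (zpowers z) := ⟨lx.mem, cen_le z (hQC lx.mem), fun x hx => by
    rw [← mem_centralizer_singleton_iff.1 (hRC hx), mul_inv_cancel_right, mul_inv_cancel]
    exact one_mem _⟩
  rcases lc.sub _ hz inf_le_left (inf_le_right.trans hB) with h | h | h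
  · obtain ⟨q, hq, h1, h2⟩ := exists_fix lx hR hRC
    exact absurd (h ▸ (⟨hq, cen_le z (hQC hq), h2⟩ : q ∈ Q ⊓ CM R (zpowers z))) h1
  · exact absurd ((gw G V z Q W el wc lc oz).1 (h ▸ hB)) nc
  · refine fun r hr => lc.cq ⟨⟨hRN hr, hRC hr⟩, cen_le z (hRC hr), fun q hq => ?_⟩
    have h1 : q ∈ Q ⊓ CM R (zpowers z) := h.symm ▸ hq
    rw [show r * q * r⁻¹ * q⁻¹ = (q * r * q⁻¹ * r⁻¹)⁻¹ by group]
    exact inv_mem (h1.2.2 r hr)

end Cfsg.Agent.H82.RfO2
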