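import Cfsg.Agent.H35.RfQ
import Cfsg.Agent.H83.RfTk
import Cfsg.Agent.H82.RfO2

/-! Project RF: the fixed groups of involutions on `Q / ⟨z⟩` in the cocode case. -/

set_option autoImplicit false

namespace Cfsg.Agent.H82.RfR4

open Cfsg Subgroup Cfsg.Agent.H18.MaxOff Cfsg.Agent.H18.Rf Cfsg.Agent.H35.RF
open Cfsg.Agent.H82.RfO2 (conj_zp cen_le)
open Cfsg.Agent.H83.RfTk (card_mul_le)
open scoped commutatorElement

universe u

theorem card_rel {G : Type u} [Group G] {B Q : Subgroup G} (h : B ≤ Q) :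
    Nat.card B * B.relIndex Q = Nat.card Q := by
  rw [← Nat.card_congr (subgroupOfEquivOfLe h).toEquiv]
  exact card_mul_index _

theorem r4 (lta : LtaStmt.{u}) : R4Stmt.{u} := by
  intro G _ _ V z W R Q ω vc ta tb ql xs y hy hyQ _
  obtain ⟨cQ, fp, l1, l2⟩ := lta G V z W R Q ω vc.toVa ta ql
  obtain ⟨t1, t2, t3, -⟩ := H83.RfTk.tk G Q z ω xs (ql.nQ ta.om) ta.om.2 ta.o3 fp
  have hWQ : W ≤ Q := ql.inf ▸ inf_le_left
  have hQR : Q ≤ R := ql.sup ▸ le_sup_left
  have hZW : zpowers z ≤ W := zpowers_le.2 vc.zW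
  have hcW := ta.cW
  rcases ta.sl y hy with h | h
  swap
  · have h1 := t1 y (ql.nQ hy) hy.2 (l2 y hy h)
    rw [cQ] at h1
    by_contra h2
    have h3 := Nat.pow_le_pow_left (not_le.1 h2).le 2
    omega
  have hD := (t2 y (ql.nQ hy) hy.2 (l1 y hy h)).1
  set D := Q ⊓ CM {y} (zpowers z) with hDe
  have hDQ : D ≤ Q := inf_le_left
  have mD : ∀ d ∈ D, d * y * d⁻¹ * y⁻¹ ∈ zpowers z := fun d hd => hd.2.2 y rfl
  by_cases hR : y ∈ R
  · rw [← ql.sup, sup_comm] at hR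
    obtain ⟨v, hv, q, hq, rfl⟩ := mem_sup_prod ((vc.VR.trans vc.RM).trans ql.nQ) hR
    have hvW : v ∉ W := fun e => hyQ (mul_mem (hWQ e) hq)
    have hvC : v ∈ C1 z := (vc.RM (vc.VR hv)).2
    have h1 : Nat.card ↥(R ⊓ CM {v} (zpowers z)) ≤ 2 ^ 13 := by
      refine le_trans ?_ (tb.ker v hv hvW)
      rw [← Nat.card_coe_set_eq]
      exact Nat.card_le_card_of_injective
        (fun x => (⟨x.1, x.2.1, x.2.2.2 v rfl⟩ : {r | r ∈ R ∧ ⁅r, v⁆ ∈ zpowers z}))
        fun a b e => Subtype.ext (congrArg Subtype.val e :)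
    have h2 : D ≤ R ⊓ CM {v} (zpowers z) := fun d hd => by
      refine ⟨hQR hd.1, hd.2.1, ?_⟩
      rintro _ rfl
      have h3 : d * q * d⁻¹ * q⁻¹ ∈ zpowers z := by
        rcases xs.comm d hd.1 q hq with e | e
        · rw [e, mul_inv_cancel_right, mul_inv_cancel]
          exact one_mem _
        · rw [e, xs.cen _ (mul_mem hq hd.1), ← mul_assoc, mul_inv_cancel_right,
            mul_inv_cancel_right]
          exact mem_zpowers z
      have h4 := mul_mem (mD d hd) ((mem_normalizer_iff.1 (cen_le z hvC) _).1 (inv_mem h3))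
      convert h4 using 1
      group
    have h3 : V ≤ R ⊓ CM {v} (zpowers z) := fun u hu => by
      refine ⟨vc.VR hu, cen_le z (vc.RM (vc.VR hu)).2, ?_⟩
      rintro _ rfl
      rw [comm_of_sq vc.el hu hv, mul_inv_cancel_right, mul_inv_cancel]
      exact one_mem _
    have h4 := card_mul_le h2 h3
    have h5 : Nat.card ↥(D ⊓ V) ≤ Nat.card W :=
      card_le_of_le (ql.inf ▸ inf_le_inf_right V hDQ)
    have h6 := h4.trans (Nat.mul_le_mul h5 h1)
    rw [vc.cV, hcW] at h6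
    omega
  have hzD : z ∈ D := ⟨xs.mem, cen_le z (mem_centralizer_singleton_iff.2 rfl), by
    rintro _ rfl
    rw [← mem_centralizer_singleton_iff.1 hy.2, mul_inv_cancel_right, mul_inv_cancel]
    exact one_mem _⟩
  have hωW := mem_norm_iff.1 (vc.nW ta.om)
  have hωD := mem_norm_iff.1 hD
  have ci : ∀ a : G, ⁅y, a⁆ = (a * y * a⁻¹ * y⁻¹)⁻¹ := fun a => by
    rw [commutatorElement_def]; group
  have h1 : Nat.card ↥(D ⊓ W) ≤ 32 := by
    have a1 := t3 (D ⊓ W) ⟨hzD, vc.zW⟩ (inf_le_left.trans hDQ)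
      (mem_norm_iff.2 (by rw [cj_inf, hωW, hωD]))
    have a2 := card_rel (show D ⊓ W ≤ Q from inf_le_left.trans hDQ)
    have a3 : Nat.card ↥(D ⊓ W) ≠ Nat.card W := fun e => hR (vc.kW y hy fun w hw => by
      rw [ci]
      exact inv_mem (mD w ((eq_of_le_of_card_ge inf_le_right e.ge).ge hw).1))
    have a4 := card_dvd_of_le (show D ⊓ W ≤ W from inf_le_right)
    rw [hcW] at a3 a4
    obtain ⟨k, hk, e⟩ := (Nat.dvd_prime_pow Nat.prime_two).1 a4
    rw [cQ, e] at a2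
    rw [e] at a3 ⊢
    interval_cases k <;> omega
  have h2 : Nat.card ↥(D ⊔ W) ≤ 2 ^ 11 := by
    have a0 : D ⊔ W ≤ Q := sup_le hDQ hWQ
    have a1 := t3 (D ⊔ W) (mem_sup_left hzD) a0 (mem_norm_iff.2 (by
      rw [show cj ω (D ⊔ W) = cj ω D ⊔ cj ω W from Subgroup.map_sup _ _ _, hωW, hωD]))
    have a2 := card_rel a0
    have a3 : (D ⊔ W).relIndex Q ≠ 1 := fun e => hR (vc.kR y hy fun r hr => by
      have b1 : V ≤ CM {y} V := fun v hv => ⟨le_normalizer hv, by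
        rintro _ rfl
        rw [mul_assoc, mul_assoc, ← mul_assoc _ v⁻¹]
        exact mul_mem hv ((mem_normalizer_iff.1 hy.1 _).1 (inv_mem hv))⟩
      have b2 : D ≤ CM {y} V := fun d hd => ⟨(vc.RM (hQR hd.1)).1, by
        rintro _ rfl
        exact vc.WV (hZW (mD d hd))⟩
      have b3 : R ≤ CM {y} V := ql.sup ▸
        sup_le ((relIndex_eq_one.1 e).trans (sup_le b2 (vc.WV.trans b1))) b1
      rw [ci]
      exact inv_mem ((b3 hr).2 y rfl))
    have a4 := Nat.mul_le_mul_left (Nat.card ↥(D ⊔ W)) (show 4 ≤ (D ⊔ W).relIndex Q by omega)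
    rw [a2, cQ] at a4
    omega
  have h3 := (card_mul_le (le_sup_left : D ≤ D ⊔ W) le_sup_right).trans (Nat.mul_le_mul h1 h2)
  rw [hcW] at h3
  omega

end Cfsg.Agent.H82.RfR4
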