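import Cfsg.Agent.H18.RfDefs
import Cfsg.Agent.H52.Fitting
import Cfsg.Agent.H42.Mathieu

/-! Project RF: reduction to simple groups. -/

set_option autoImplicit false

namespace Cfsg.Agent.H82.RfRed

open Cfsg Subgroup Cfsg.Agent.H18.MaxOff Cfsg.Agent.H18.Rf
open scoped Pointwise

universe u

variable {G : Type u} [Group G] [Finite G]

theorem fix_triv {K : Subgroup G} [K.Normal] (hK : (Nat.card K).Coprime 2) {a : G}
    (ha : pPrimeCore 2 (C1 a) = ⊥) {k : G} (hk : k ∈ K) (h : a * k * a⁻¹ = k) : k = 1 := by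
  have h1 : k ∈ C1 a := mem_centralizer_singleton_iff.2 (mul_inv_eq_iff_eq_mul.1 h).symm
  have h2 : K.subgroupOf (C1 a) ≤ pPrimeCore 2 (C1 a) :=
    H52.le_pPrimeCore (hK.coprime_dvd_left (card_comap_dvd_of_injective K _ (C1 a).subtype_injective))
  have h3 : (⟨k, h1⟩ : C1 a) ∈ pPrimeCore 2 (C1 a) := h2 hk
  rw [ha] at h3
  exact congrArg Subtype.val (mem_bot.1 h3)

theorem inverts {K : Subgroup G} [K.Normal] (hK : (Nat.card K).Coprime 2) {a : G}
    (h2 : a * a = 1) (ha : pPrimeCore 2 (C1 a) = ⊥) {k : G} (hk : k ∈ K) :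
    a * k * a⁻¹ = k⁻¹ := by
  have h1 : MonoidHom.FixedPointFree (MulAut.conjNormal (H := K) a) := fun x hx =>
    Subtype.ext (fix_triv hK ha x.2 (congrArg Subtype.val hx))
  have h3 := h1.coe_eq_inv_of_involutive fun x => Subtype.ext (by
    change a * (a * x * a⁻¹) * a⁻¹ = x
    rw [show a * (a * x * a⁻¹) * a⁻¹ = a * a * x * (a * a)⁻¹ by group, h2]
    simp)
  exact congrArg Subtype.val (congrFun h3 ⟨k, hk⟩)

theorem odd_triv {a b : G} (ha2 : a * a = 1) (hb2 : b * b = 1) (ha : pPrimeCore 2 (C1 a) = ⊥)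
    (hb : pPrimeCore 2 (C1 b) = ⊥) (hab : pPrimeCore 2 (C1 (a * b)) = ⊥) (K : Subgroup G)
    [K.Normal] (hK : (Nat.card K).Coprime 2) : K = ⊥ := by
  refine eq_bot_iff.2 fun k hk => fix_triv hK hab hk ?_
  rw [show a * b * k * (a * b)⁻¹ = a * (b * k * b⁻¹) * a⁻¹ by group, inverts hK hb2 hb hk,
    inverts hK ha2 ha (inv_mem hk), inv_inv]

theorem red : RedStmt.{u} := by
  intro G _ _ V ρ st wc irr ⟨a, ha, b, hb, ha1, _, _, oa, ob, oab⟩
  have odd := odd_triv (st.el a ha) (st.el b hb) oa ob oab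
  have hV := pg_of_sq st.el
  obtain ⟨P, hP⟩ := hV.exists_le_sylow
  have hPN : (P : Subgroup G) ≤ NN V := wc.le_norm P.isPGroup' hP
  by_cases hn : V.Normal
  · exact Or.inl hn
  right
  haveI : Nontrivial G := ⟨a, 1, ha1⟩
  refine ⟨fun K hK => ?_⟩
  rcases irr (K ⊓ V) inf_le_right (fun n hn => mem_norm_of_le fun x hx =>
    ⟨hK.conj_mem _ hx.1 n, (mem_normalizer_iff.1 hn x).1 hx.2⟩) with h | h
  · left
    have h1 : ∀ k ∈ K, k ∈ NN V → k = 1 := fun k hk hk' => by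
      have h2 : k ∈ CC V := fun v hv => by
        have h3 : v * k * v⁻¹ * k⁻¹ ∈ K ⊓ V :=
          ⟨K.mul_mem (hK.conj_mem _ hk v) (K.inv_mem hk), by
            rw [show v * k * v⁻¹ * k⁻¹ = v * (k * v⁻¹ * k⁻¹) by group]
            exact V.mul_mem hv ((mem_normalizer_iff.1 hk' _).1 (V.inv_mem hv))⟩
        rw [h, mem_bot, mul_inv_eq_one, mul_inv_eq_iff_eq_mul] at h3
        exact h3
      rw [st.cen] at h2
      exact mem_bot.1 (h ▸ (⟨hk, h2⟩ : k ∈ K ⊓ V))
    refine odd K (Nat.Coprime.symm ((Nat.Prime.coprime_iff_not_dvd Nat.prime_two).2 fun h2 => ?_))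
    obtain ⟨x, hx⟩ := exists_prime_orderOf_dvd_card' 2 h2
    rw [← orderOf_coe] at hx
    obtain ⟨Q, hQ⟩ := (IsPGroup.of_card (p := 2) (n := 1) (G := zpowers x.1)
      (by rw [Nat.card_zpowers, hx, pow_one])).exists_le_sylow
    obtain ⟨g, rfl⟩ := MulAction.exists_smul_eq G Q P
    have h3 := h1 (g * x * g⁻¹) (hK.conj_mem _ x.2 g) (hPN ⟨x.1, hQ (mem_zpowers _), rfl⟩)
    rw [conj_eq_one_iff.1 h3, orderOf_one] at hx
    omega
  have hVK : V ≤ K := inf_eq_right.1 h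
  haveI := H42.M24_simple
  rcases ((hK.subgroupOf (NN V)).map ρ st.sur).eq_bot_or_eq_top with h1 | h1
  · exfalso
    have h2 : ∀ k ∈ K, k ∈ NN V → k ∈ V := fun k hk hk' =>
      (st.ker ⟨k, hk'⟩).1 (mem_bot.1 (h1 ▸ mem_map_of_mem ρ (show _ ∈ K.subgroupOf (NN V) from hk)))
    obtain ⟨S, hS⟩ := (hV.comap_of_injective K.subtype K.subtype_injective).exists_le_sylow
    have h3 : ∀ s : K, s ∈ (S : Subgroup K) ↔ s.1 ∈ V := fun s => ⟨fun hs => h2 _ s.2
      (wc.le_norm (S.isPGroup'.map K.subtype) (fun v hv => ⟨⟨v, hVK hv⟩, hS hv, rfl⟩)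
        ⟨s, hs, rfl⟩), fun hs => hS hs⟩
    have h4 : normalizer (S : Set K) ≤ centralizer (S : Set K) := fun x hx s hs => by
      have h5 : x.1 ∈ V := h2 _ x.2 (mem_norm_of_le fun v hv =>
        (h3 _).1 ((mem_normalizer_iff.1 hx ⟨v, hVK hv⟩).1 ((h3 _).2 hv)))
      exact Subtype.ext (comm_of_sq st.el ((h3 s).1 hs) h5)
    have h5 := MonoidHom.ker_transferSylow_isComplement' S h4
    haveI := H52.pPrimeCore_characteristic (G := K) (p := 2)
    have h6 := odd ((pPrimeCore 2 K).map K.subtype) (by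
      rw [card_map_of_injective K.subtype_injective]; exact H52.coprime_card_pPrimeCore)
    rw [map_eq_bot_iff_of_injective _ K.subtype_injective] at h6
    have h7 : (MonoidHom.transferSylow S h4).ker = ⊥ := eq_bot_iff.2 (h6 ▸ H52.le_pPrimeCore
      (Nat.Coprime.symm ((Nat.Prime.coprime_iff_not_dvd Nat.prime_two).2
        (MonoidHom.not_dvd_card_ker_transferSylow S h4))))
    rw [h7, isComplement'_bot_left] at h5
    refine hn (le_antisymm (fun k hk => (h3 ⟨k, hk⟩).1 ?_) hVK ▸ hK)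
    rw [h5]
    exact mem_top _
  · right
    have h2 : NN V ≤ K := fun n hn => by
      obtain ⟨m, hm, e⟩ : ρ ⟨n, hn⟩ ∈ (K.subgroupOf (NN V)).map ρ := h1 ▸ mem_top _
      have h3 : (m⁻¹ * ⟨n, hn⟩ : NN V).1 ∈ V :=
        (st.ker _).1 (by rw [map_mul, map_inv, e, inv_mul_cancel])
      have h4 := mul_mem (show m.1 ∈ K from hm) (hVK h3)
      simpa using h4
    rw [← P.normalizer_sup_eq_top' (hPN.trans h2), eq_comm, sup_eq_right]
    refine fun g hg => h2 (mem_norm_iff.2 (wc g ((cj_mono g hP).trans ?_)))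
    rw [mem_norm_iff.1 hg]
    exact hPN

end Cfsg.Agent.H82.RfRed
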